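import Cfsg.Agent.H290.ElRich
import Cfsg.Agent.H56.Exc.Full

/-!
# Big primes of the alternating groups (helper983)

* `alt_aut` : if `r ≥ 5` is a prime divisor of `|A_m|` with cyclic centralisers and automizers of exponent dividing 6,
  then `r - 1` divides 12.
-/

set_option autoImplicit false

namespace Cfsg.Agent.H983.Cov

open Cfsg.Agent.H56.Exc Subgroup Equiv

theorem cyc_of_prime {m r : ℕ} (h2 : m < 2 * r) {σ : Perm (Fin m)} (hr : r.Prime) (ho : orderOf σ = r) :
    σ.cycleType = {r} := by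
  obtain ⟨n, hn⟩ := Equiv.Perm.cycleType_prime_order (σ := σ) (by rw [ho]; exact hr)
  rw [ho] at hn
  have h1 : σ.cycleType.sum ≤ m := by
    rw [Equiv.Perm.sum_cycleType]
    exact (Finset.card_le_univ _).trans (by simp)
  rw [hn, Multiset.sum_replicate, smul_eq_mul] at h1
  have h3 : n = 0 := by
    by_contra h0
    have : 2 * r ≤ (n + 1) * r := Nat.mul_le_mul_right r (by omega)
    omega
  rw [hn, h3]
  rfl

theorem alt_aut {S : Type*} [Group S] [Finite S] {m r N : ℕ} (hb : Big S r N 6) (h5 : 5 ≤ r)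
    (e : S ≃* alternatingGroup (Fin m)) (hd : r ∣ Nat.card S) : r - 1 ∣ 12 := by
  have hr := hb.prime
  have := Fact.mk hr
  have hm : m ≤ r + 3 := by
    refine Cfsg.Agent.H290.ElRich.alt_le hr h5 e hd (fun x hx => ?_)
    have := hb.cyc x hx
    let _ := IsCyclic.commGroup (α := ↥(Subgroup.centralizer ({x} : Set S)))
    infer_instance
  obtain ⟨x, hx⟩ := exists_prime_orderOf_dvd_card' r hd
  set σ : Perm (Fin m) := ((e x : alternatingGroup (Fin m)) : Perm (Fin m)) with hσ
  have hσo : orderOf σ = r := by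
    rw [hσ, Subgroup.orderOf_coe, MulEquiv.orderOf_eq, hx]
  obtain ⟨g, hg⟩ := (ZMod.isCyclic_units_prime hr).exists_generator
  set k : ℕ := ((g : ZMod r)).val with hk
  have hkr : (k : ZMod r) = g := by rw [hk, ZMod.natCast_zmod_val]
  have hk0 : Nat.Coprime r k := by
    rw [Nat.Prime.coprime_iff_not_dvd hr]
    intro h
    rw [← ZMod.natCast_eq_zero_iff, hkr] at h
    exact g.ne_zero h
  have hc1 := cyc_of_prime (by omega) hr hσo
  have hσk : orderOf (σ ^ k) = r := by
    rw [orderOf_pow, hσo, hk0, Nat.div_one]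
  have hc2 := cyc_of_prime (by omega) hr hσk
  obtain ⟨τ, hτ⟩ := isConj_iff.1 (Equiv.Perm.isConj_iff_cycleType_eq.2 (hc1.trans hc2.symm))
  -- the square of `τ`
  have hτ2 : τ ^ 2 ∈ alternatingGroup (Fin m) := by
    rw [Equiv.Perm.mem_alternatingGroup, map_pow]
    rcases Int.units_eq_one_or (Equiv.Perm.sign τ) with h | h <;> rw [h] <;> rfl
  have hconj : ∀ j : ℕ, τ ^ j * σ * (τ ^ j)⁻¹ = σ ^ (k ^ j) := by
    intro j
    induction j with
    | zero => simp
    | succ n ih =>
      have h1 : τ ^ (n + 1) * σ * (τ ^ (n + 1))⁻¹ = τ * (τ ^ n * σ * (τ ^ n)⁻¹) * τ⁻¹ := by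
        rw [pow_succ']; group
      rw [h1, ih, ← conj_pow, hτ, ← pow_mul, pow_succ']
  set y : S := e.symm ⟨τ ^ 2, hτ2⟩ with hy
  have hey : ((e y : alternatingGroup (Fin m)) : Perm (Fin m)) = τ ^ 2 := by rw [hy, e.apply_symm_apply]
  have hyx : y * x * y⁻¹ = x ^ (k ^ 2) := by
    apply e.injective
    apply Subtype.ext
    rw [map_mul, map_mul, map_inv, map_pow]
    show ((e y : alternatingGroup (Fin m)) : Perm (Fin m)) * σ * ((e y : alternatingGroup (Fin m)) : Perm (Fin m))⁻¹ =
      σ ^ (k ^ 2)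
    rw [hey]
    exact hconj 2
  have h1 := hb.aut x y hx (by rw [hyx]; exact pow_mem (mem_zpowers x) _)
  have h2 : σ ^ (k ^ 12) = σ := by
    rw [← hconj 12]
    have h3 : (y ^ 6) * x * (y ^ 6)⁻¹ = x := by rw [h1.eq, mul_inv_cancel_right]
    have h4 := congrArg (fun z => ((e z : alternatingGroup (Fin m)) : Perm (Fin m))) h3
    simp only [map_mul, map_inv, map_pow] at h4
    have h5 : ((e y : alternatingGroup (Fin m)) : Perm (Fin m)) ^ 6 * σ *
        (((e y : alternatingGroup (Fin m)) : Perm (Fin m)) ^ 6)⁻¹ = σ := h4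
    rw [hey, ← pow_mul] at h5
    exact h5
  have h3 : k ^ 12 ≡ 1 [MOD r] := by
    rw [← hσo, ← pow_eq_pow_iff_modEq, h2, pow_one]
  have h4 : g ^ 12 = 1 := by
    apply Units.ext
    rw [Units.val_pow_eq_pow_val, ← hkr, Units.val_one]
    have := (ZMod.natCast_eq_natCast_iff _ _ _).2 h3
    push_cast at this
    exact this
  have h5 : orderOf g = r - 1 := by
    rw [orderOf_eq_card_of_forall_mem_zpowers hg, Nat.card_eq_fintype_card, ZMod.card_units_eq_totient,
      Nat.totient_prime hr]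
  rw [← h5]
  exact orderOf_dvd_of_pow_eq_one h4

/-- the primes -/
theorem alt_prime {S : Type*} [Group S] [Finite S] {m r N : ℕ} (hb : Big S r N 6) (h7 : 7 ≤ r)
    (e : S ≃* alternatingGroup (Fin m)) (hd : r ∣ Nat.card S) : (r = 7 ∨ r = 13) ∧ m ≤ r + 3 := by
  have hr := hb.prime
  have h1 := alt_aut hb (by omega) e hd
  have hm : m ≤ r + 3 := by
    refine Cfsg.Agent.H290.ElRich.alt_le hr (by omega) e hd (fun x hx => ?_)
    have := hb.cyc x hx
    let _ := IsCyclic.commGroup (α := ↥(Subgroup.centralizer ({x} : Set S)))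
    infer_instance
  refine ⟨?_, hm⟩
  have h2 : r ≤ 13 := by
    have := Nat.le_of_dvd (by norm_num) h1
    omega
  interval_cases r <;> first | (left; rfl) | (right; rfl) | (exfalso; revert h1; norm_num)

end Cfsg.Agent.H983.Cov
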