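import Cfsg.Agent.H983.ElG.KArith
import Cfsg.Agent.H436.Names

/-!
# S2499, `G₂(q)`, `q` odd: counting the conjugates of a torus in `L₃(q)` and `U₃(q)` (helper983)
-/

set_option autoImplicit false

namespace Cfsg.Agent.H983.Cov

open Cfsg Cfsg.Agent.OrdDiv Cfsg.Agent.H436
open Cfsg.Agent.H946.Num Cfsg.Agent.H946.Rad Cfsg.Agent.H983.KG2

theorem six_cases {i e : ℕ} (h : i * e ∣ 6) (r : ℕ) (h7 : 7 ≤ r) (he : (r : ℤ) ∣ (e : ℤ) - 3) : i ∣ 2 := by
  have he6 : e ≤ 6 := Nat.le_of_dvd (by norm_num) ((Dvd.intro_left i rfl).trans h)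
  have h3 : e = 3 := by
    obtain ⟨k, hk⟩ := he
    have hk0 : k = 0 := by
      by_contra hne
      rcases lt_or_gt_of_ne hne with h1 | h1
      · have h2 : (r : ℤ) * k ≤ (r : ℤ) * (-1) := by
          apply mul_le_mul_of_nonneg_left <;> omega
        omega
      · have h2 : (r : ℤ) * 1 ≤ (r : ℤ) * k := by
          apply mul_le_mul_of_nonneg_left <;> omega
        omega
    rw [hk0, mul_zero] at hk
    omega
  subst h3
  have h4 : i * 3 ∣ 2 * 3 := h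
  exact Nat.dvd_of_mul_dvd_mul_right (by norm_num) h4

theorem cnt_l3 {q n e C r i : ℕ} (hq : 3 ≤ q) (h3 : q % 3 = 0)
    (hnum : den (.psl 3 q) * C = num (.psl 3 q)) (hS : C = n * (e * N3 q)) (hn : n ≡ 1 [MOD r])
    (hr : r ∣ N3 q) (h7 : 7 ≤ r) (hi : i * e ∣ 6) : i ∣ 2 := by
  have hg : Nat.gcd 3 (q - 1) = 1 := by
    rw [Nat.Coprime.eq_1 3 (q - 1) |>.symm]
    rw [Nat.prime_three.coprime_iff_not_dvd]
    omega
  have hnum' : Nat.gcd 3 (q - 1) * (q - 1) * C = (q ^ 3 - q ^ 0) * ((q ^ 3 - q ^ 1) * ((q ^ 3 - q ^ 2) * 1)) := hnum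
  rw [hg, one_mul, pow_zero, pow_one, mul_one, hS] at hnum'
  have l1 : 1 ≤ q ^ 3 := Nat.one_le_pow _ _ (by omega)
  have l2 : q ≤ q ^ 3 := Nat.le_self_pow (by norm_num) q
  have l3 : q ^ 2 ≤ q ^ 3 := Nat.pow_le_pow_right (by omega) (by norm_num)
  have l4 : 1 ≤ q := by omega
  have hz : ((q : ℤ) - 1) * ((n : ℤ) * (e * (q ^ 2 + q + 1))) = (q ^ 3 - 1) * ((q ^ 3 - q) * (q ^ 3 - q ^ 2)) := by
    have := congrArg (Nat.cast : ℕ → ℤ) hnum'
    unfold N3 at this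
    push_cast [Nat.cast_sub l1, Nat.cast_sub l2, Nat.cast_sub l3, Nat.cast_sub l4] at this
    exact this
  have hq1 : ((q : ℤ) - 1) * (q ^ 2 + q + 1) ≠ 0 := by
    apply mul_ne_zero
    · omega
    · positivity
  have hz2 : (n : ℤ) * e = (q ^ 3 - q) * (q ^ 3 - q ^ 2) := by
    apply mul_left_cancel₀ hq1
    linear_combination hz
  apply six_cases hi r h7
  have hr' : (r : ℤ) ∣ (q : ℤ) ^ 2 + q + 1 := by
    have := Int.natCast_dvd_natCast.2 hr
    unfold N3 at this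
    push_cast at this
    exact this
  have hn' : (r : ℤ) ∣ (n : ℤ) - 1 := by
    have := (Nat.modEq_iff_dvd.1 hn.symm)
    push_cast at this
    exact this
  have e1 : (e : ℤ) - 3 = -(((n : ℤ) - 1) * e) + ((q : ℤ) ^ 2 + q + 1) * (q ^ 4 - 2 * q ^ 3 + 3 * q - 3) := by
    linear_combination hz2
  rw [e1]
  exact dvd_add (dvd_neg.2 (hn'.mul_right _)) (hr'.mul_right _)

theorem cnt_u3 {q n e C r i : ℕ} (hq : 3 ≤ q) (h3 : q % 3 = 0)
    (hnum : den (.psu 3 q) * C = num (.psu 3 q)) (hS : C = n * (e * N6 q)) (hn : n ≡ 1 [MOD r])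
    (hr : r ∣ N6 q) (h7 : 7 ≤ r) (hi : i * e ∣ 6) : i ∣ 2 := by
  have hg : Nat.gcd 3 (q + 1) = 1 := by
    rw [Nat.Coprime.eq_1 3 (q + 1) |>.symm]
    rw [Nat.prime_three.coprime_iff_not_dvd]
    omega
  have hnum' : Nat.gcd 3 (q + 1) * (q + 1) * C = q ^ 3 * ((q ^ 1 + 1) * ((q ^ 2 - 1) * ((q ^ 3 + 1) * 1))) := hnum
  rw [hg, one_mul, pow_one, mul_one, hS] at hnum'
  have l1 : 1 ≤ q ^ 2 := Nat.one_le_pow _ _ (by omega)
  have hN := cast_N6 q
  have hz : ((q : ℤ) + 1) * ((n : ℤ) * (e * (q ^ 2 - q + 1))) = q ^ 3 * ((q + 1) * ((q ^ 2 - 1) * (q ^ 3 + 1))) := by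
    have := congrArg (Nat.cast : ℕ → ℤ) hnum'
    push_cast [Nat.cast_sub l1, hN] at this
    exact this
  have hq1 : ((q : ℤ) + 1) * (q ^ 2 - q + 1) ≠ 0 := by
    apply mul_ne_zero
    · omega
    · rw [← hN]
      have h1 : (3 : ℤ) ≤ q := by exact_mod_cast hq
      have h2 : (0 : ℤ) < (N6 q : ℕ) := by rw [hN]; nlinarith
      exact h2.ne'
  have hz2 : (n : ℤ) * e = q ^ 3 * ((q ^ 2 - 1) * (q + 1)) := by
    apply mul_left_cancel₀ hq1
    linear_combination hz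
  apply six_cases hi r h7
  have hr' : (r : ℤ) ∣ (q : ℤ) ^ 2 - q + 1 := by
    have := Int.natCast_dvd_natCast.2 hr
    rwa [hN] at this
  have hn' : (r : ℤ) ∣ (n : ℤ) - 1 := by
    have := (Nat.modEq_iff_dvd.1 hn.symm)
    push_cast at this
    exact this
  have e1 : (e : ℤ) - 3 = -(((n : ℤ) - 1) * e) + ((q : ℤ) ^ 2 - q + 1) * (q ^ 4 + 2 * q ^ 3 - 3 * q - 3) := by
    linear_combination hz2
  rw [e1]
  exact dvd_add (dvd_neg.2 (hn'.mul_right _)) (hr'.mul_right _)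

/-- if `3 ∣ q` the tori have order prime to 3 -/
theorem N3_eq {q : ℕ} (h : q % 3 = 0) : N3 q = c3 q := by
  have h1 := c3_mul q
  have h2 : Nat.gcd 3 (N3 q) = 1 := by
    rw [← Nat.coprime_iff_gcd_eq_one, Nat.prime_three.coprime_iff_not_dvd]
    intro h3
    unfold N3 at h3
    have h4 := Nat.mod_eq_zero_of_dvd h3
    rw [Nat.add_mod, Nat.add_mod (q ^ 2), Nat.pow_mod, h] at h4
    norm_num at h4
  rw [h2, one_mul] at h1
  exact h1.symm

theorem N6_eq {q : ℕ} (h : q % 3 = 0) : N6 q = c6 q := by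
  have h1 := c6_mul q
  have h2 : Nat.gcd 3 (N6 q) = 1 := by
    rw [← Nat.coprime_iff_gcd_eq_one, Nat.prime_three.coprime_iff_not_dvd]
    intro h3
    have h4 : (3 : ℤ) ∣ (N6 q : ℕ) := by exact_mod_cast h3
    rw [cast_N6] at h4
    have h5 : (3 : ℤ) ∣ (q : ℤ) := by
      have : 3 ∣ q := Nat.dvd_of_mod_eq_zero h
      exact_mod_cast this
    have h6 : (3 : ℤ) ∣ (q : ℤ) ^ 2 - q := by
      have : (q : ℤ) ^ 2 - q = q * (q - 1) := by ring
      rw [this]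
      exact h5.mul_right _
    have h7 := (Int.dvd_add_right h6).1 h4
    norm_num at h7
  rw [h2, one_mul] at h1
  exact h1.symm

end Cfsg.Agent.H983.Cov
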