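import Cfsg.Agent.H56.Exc.Full

/-!
# Counting subgroups of big prime order (helper983)

* `index_mod` : the number of conjugates of a subgroup of big prime order `r` is 1 modulo `r`;
* `index_mul` : `S ⊲ G`, `y ∈ S` of order `N`: `|S| = n e N`, `n ≡ 1`, `|G : S| e` divides `6`.
-/

set_option autoImplicit false

namespace Cfsg.Agent.H983.Cov

open Cfsg.Agent.H56.Exc Subgroup

variable {G : Type*} [Group G] [Finite G] {r m e : ℕ}

theorem mem_zpowers_of_normalizes (h : Big G r m e) {x z : G} (hx : orderOf x = r) (hz : orderOf z = r)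
    (hn : z * x * z⁻¹ ∈ zpowers x) : z ∈ zpowers x := by
  have h1 := h.aut x z hx hn
  have h2 : Commute z x := by
    have hcop : Nat.Coprime (orderOf z) e := by
      rw [hz]
      exact (Nat.Prime.coprime_iff_not_dvd h.prime).2 h.ndvd
    obtain ⟨k, hk⟩ := exists_pow_eq_self_of_coprime hcop.symm
    rw [← hk]
    exact h1.pow_left k
  refine mem_zpowers_of_cyclic (h.cyc x hx) (mem_centralizer_singleton_iff.2 rfl) (mem_centralizer_singleton_iff.2 ?_)
    (by rw [hx, hz])
  exact h2.eq

theorem index_mod (h : Big G r m e) {x : G} (hx : orderOf x = r) :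
    (normalizer (zpowers x : Set G)).index ≡ 1 [MOD r] := by
  have hr := h.prime
  have := Fact.mk hr
  set K : Subgroup G := normalizer (zpowers x : Set G) with hK
  have hmemK : ∀ g : G, g * x * g⁻¹ ∈ zpowers x → g ∈ K := by
    intro g hg
    rw [hK, mem_normalizer_iff]
    have hle : (zpowers x).map (MulAut.conj g).toMonoidHom = zpowers x := by
      apply Subgroup.eq_of_le_of_card_ge
      · rintro _ ⟨_, ⟨k, rfl⟩, rfl⟩
        show g * x ^ k * g⁻¹ ∈ _
        rw [← conj_zpow]
        exact zpow_mem hg k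
      · rw [Subgroup.card_map_of_injective (MulAut.conj g).injective]
    intro a
    constructor
    · intro ha
      rw [← hle]
      exact ⟨a, ha, rfl⟩
    · intro ha
      rw [← hle] at ha
      obtain ⟨b, hb, hba⟩ := ha
      have : b = a := (MulAut.conj g).injective hba
      rwa [← this]
  have hP : IsPGroup r (zpowers x) := IsPGroup.of_card (n := 1) (by rw [Nat.card_zpowers, hx, pow_one])
  have h1 := hP.card_modEq_card_fixedPoints (G ⧸ K)
  have h2 : Nat.card (MulAction.fixedPoints (zpowers x) (G ⧸ K)) = 1 := by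
    rw [Nat.card_eq_one_iff_unique]
    have key : ∀ a : MulAction.fixedPoints (zpowers x) (G ⧸ K), (a : G ⧸ K) = QuotientGroup.mk 1 := by
      rintro ⟨a, ha⟩
      induction a using QuotientGroup.induction_on with
      | _ g =>
      have h3 : x • (QuotientGroup.mk g : G ⧸ K) = QuotientGroup.mk g := ha ⟨x, mem_zpowers x⟩
      have h4 : (QuotientGroup.mk (x * g) : G ⧸ K) = QuotientGroup.mk g := h3
      rw [eq_comm, QuotientGroup.eq] at h4
      have h5 : g⁻¹ * x * g ∈ K := by rw [mul_assoc]; exact h4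
      have h6 : orderOf (g⁻¹ * x * g) = r := by
        rw [← hx]
        have := (MulAut.conj g⁻¹).orderOf_eq x
        simpa using this
      have h7 : g⁻¹ * x * g ∈ zpowers x :=
        mem_zpowers_of_normalizes h hx h6 ((mem_normalizer_iff.1 h5 x).1 (mem_zpowers x))
      have h8 : g⁻¹ ∈ K := hmemK _ (by rwa [inv_inv])
      show (QuotientGroup.mk g : G ⧸ K) = QuotientGroup.mk 1
      rw [QuotientGroup.eq, mul_one]
      exact h8
    refine ⟨⟨fun a b => Subtype.ext ((key a).trans (key b).symm)⟩, ⟨⟨QuotientGroup.mk 1, ?_⟩⟩⟩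
    rintro ⟨y, hy⟩
    show (QuotientGroup.mk (y * 1) : G ⧸ K) = QuotientGroup.mk 1
    rw [QuotientGroup.eq, mul_one, mul_one]
    exact K.inv_mem (le_normalizer hy)
  rw [h2] at h1
  rwa [Subgroup.index_eq_card]

/-- **Counting in a normal subgroup.** -/
theorem index_mul {N : ℕ} (h : Big G r N 6) {S : Subgroup G} [S.Normal] {y : S} (hy : orderOf y = N) (hrN : r ∣ N)
    (hN0 : N ≠ 0) : ∃ e n, S.index * e ∣ 6 ∧ e ≠ 0 ∧ Nat.card S = n * (e * N) ∧ n ≡ 1 [MOD r] := by
  have hr := h.prime
  have := Fact.mk hr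
  set x : S := y ^ (N / r) with hxdef
  have hx : orderOf x = r := by
    rw [hxdef, orderOf_pow_of_dvd (Nat.div_pos (Nat.le_of_dvd (Nat.pos_of_ne_zero hN0) hrN) hr.pos).ne'
      (by rw [hy]; exact Nat.div_dvd_of_dvd hrN), hy, Nat.div_div_self hrN hN0]
  have hxG : orderOf (x : G) = r := by rw [Subgroup.orderOf_coe, hx]
  have hbS := h.subgroup S
  set K : Subgroup G := normalizer (zpowers (x : G) : Set G) with hK
  set KS : Subgroup S := normalizer (zpowers x : Set S) with hKS
  have hKd := h.card_normalizer_dvd hxG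
  have hyx : Commute y x := (Commute.refl y).pow_right _
  have hyKS : y ∈ KS := by
    rw [hKS, mem_normalizer_iff]
    have hh : ∀ a ∈ zpowers x, y * a * y⁻¹ = a := by
      rintro _ ⟨k, rfl⟩
      show y * x ^ k * y⁻¹ = x ^ k
      rw [(hyx.zpow_right k).eq, mul_inv_cancel_right]
    intro a
    constructor
    · intro ha
      rw [hh a ha]
      exact ha
    · intro ha
      have h1 : y * a * y⁻¹ = y * (y * a * y⁻¹) * y⁻¹ := (hh _ ha).symm
      have h2 : a = y * a * y⁻¹ := by
        have := mul_left_cancel (mul_right_cancel h1)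
        exact this
      rw [h2]
      exact ha
  have hNKS : N ∣ Nat.card KS := by
    rw [← hy, ← Subgroup.orderOf_mk y hyKS]
    exact orderOf_dvd_natCard _
  obtain ⟨e, he⟩ := hNKS
  -- `KS` is `K ∩ S`
  have hKS' : KS = K.subgroupOf S := by
    ext a
    rw [mem_subgroupOf, hKS, hK, mem_normalizer_iff, mem_normalizer_iff]
    have hz : ∀ b : S, b ∈ zpowers x ↔ (b : G) ∈ zpowers (x : G) := by
      intro b
      constructor
      · rintro ⟨k, rfl⟩
        exact ⟨k, by simp⟩
      · rintro ⟨k, hk⟩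
        exact ⟨k, Subtype.ext (by simpa using hk)⟩
    constructor
    · intro ha b
      constructor
      · intro hb
        have hbS : b ∈ S := by
          obtain ⟨k, rfl⟩ := hb
          exact S.zpow_mem x.2 k
        have := (ha ⟨b, hbS⟩).1 ((hz _).2 hb)
        exact (hz _).1 this
      · intro hb
        have hbS : b ∈ S := by
          have h1 : (a : G) * b * (a : G)⁻¹ ∈ S := by
            obtain ⟨k, hk⟩ := hb
            rw [← hk]
            exact S.zpow_mem x.2 k
          have h2 : (a : G)⁻¹ * ((a : G) * b * (a : G)⁻¹) * (a : G)⁻¹⁻¹ ∈ S :=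
            (inferInstance : S.Normal).conj_mem _ h1 _
          have e1 : (a : G)⁻¹ * ((a : G) * b * (a : G)⁻¹) * (a : G)⁻¹⁻¹ = b := by group
          rwa [e1] at h2
        exact (hz ⟨b, hbS⟩).1 ((ha ⟨b, hbS⟩).2 ((hz _).2 hb))
    · intro ha b
      rw [hz, hz]
      exact ha b
  -- Frattini
  obtain ⟨P₀, hP₀⟩ : ∃ P : Sylow r S, zpowers x ≤ P := by
    have hxp : IsPGroup r (zpowers x) := IsPGroup.of_card (n := 1) (by rw [Nat.card_zpowers, hx, pow_one])
    obtain ⟨P, hP⟩ := hxp.exists_le_sylow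
    exact ⟨P, hP⟩
  have hxP₀ : x ∈ (P₀ : Subgroup S) := hP₀ (mem_zpowers x)
  have hcyc : IsCyclic ↥((P₀ : Subgroup S).map S.subtype) := h.isCyclic_of_isPGroup (P₀.2.map _)
  have hF := Sylow.normalizer_sup_eq_top P₀
  have hNle : normalizer (((P₀ : Subgroup S).map S.subtype : Subgroup G) : Set G) ≤ K := by
    have hsub : ∀ y ∈ normalizer (((P₀ : Subgroup S).map S.subtype : Subgroup G) : Set G),
        y * (x : G) * y⁻¹ ∈ zpowers (x : G) := by
      intro y hy
      have h1 : y * (x : G) * y⁻¹ ∈ (P₀ : Subgroup S).map S.subtype :=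
        (mem_normalizer_iff.1 hy (x : G)).1 ⟨x, hxP₀, rfl⟩
      exact mem_zpowers_of_cyclic hcyc ⟨x, hxP₀, rfl⟩ h1 (by
        rw [show orderOf (y * (x : G) * y⁻¹) = orderOf (x : G) from by
          rw [← MulAut.conj_apply]; exact (MulAut.conj y).orderOf_eq _])
    have hsub' : ∀ y ∈ normalizer (((P₀ : Subgroup S).map S.subtype : Subgroup G) : Set G),
        ∀ a ∈ zpowers (x : G), y * a * y⁻¹ ∈ zpowers (x : G) := by
      rintro y hy _ ⟨j, rfl⟩
      show y * (x : G) ^ j * y⁻¹ ∈ _
      rw [← conj_zpow]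
      exact zpow_mem (hsub y hy) j
    intro y hy
    rw [hK, mem_normalizer_iff]
    intro a
    refine ⟨fun ha => hsub' y hy a ha, fun ha => ?_⟩
    have := hsub' y⁻¹ (inv_mem hy) _ ha
    have e1 : y⁻¹ * (y * a * y⁻¹) * y⁻¹⁻¹ = a := by group
    rwa [e1] at this
  have hKS2 : K ⊔ S = ⊤ := by
    rw [eq_top_iff, ← hF]
    exact sup_le_sup_right hNle S
  have hidx : S.index = S.relIndex K := by
    rw [← relIndex_top_right, ← hKS2, sup_comm, relIndex_sup_left]
  have hcard : S.index * Nat.card KS = Nat.card K := by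
    rw [hidx, hKS', mul_comm]
    have h1 : Nat.card (K.subgroupOf S) = Nat.card (S.subgroupOf K) := by
      have e1 := Nat.card_congr (Subgroup.subgroupOfEquivOfLe (inf_le_right : K ⊓ S ≤ S)).toEquiv
      have e2 := Nat.card_congr (Subgroup.subgroupOfEquivOfLe (inf_le_left : K ⊓ S ≤ K)).toEquiv
      rw [Subgroup.inf_subgroupOf_right] at e1
      rw [Subgroup.inf_subgroupOf_left] at e2
      rw [e1, e2]
    rw [h1]
    exact Subgroup.card_mul_index (S.subgroupOf K)
  have he0 : e ≠ 0 := by
    rintro rfl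
    rw [mul_zero] at he
    exact absurd he Nat.card_pos.ne'
  refine ⟨e, KS.index, ?_, he0, ?_, index_mod hbS hx⟩
  · have h1 : (S.index * e) * N ∣ 6 * N := by
      refine dvd_trans (dvd_of_eq ?_) hKd
      rw [← hcard, he]
      ring
    exact Nat.dvd_of_mul_dvd_mul_right (Nat.pos_of_ne_zero hN0) h1
  · rw [← KS.card_mul_index, he]
    ring

end Cfsg.Agent.H983.Cov
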