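import Cfsg.Agent.H265.LQ.SLThree

/-!
# The Borel subgroup of `PSL₃(q)` (helper983)

* `pow_eq_one` : the `p`-elements of `PSL₃(q)` have order dividing `p`, `p` odd;
* `exists_tor` : a Sylow `p`-subgroup normalised by a `p'`-subgroup of order at least `(q - 1)² / 3`.
-/

set_option autoImplicit false

namespace Cfsg.Agent.H983.Cov.L3

open Matrix Subgroup Cfsg.Agent.H265.LQ
open Cfsg.Agent.ClassicalGeometry.AutPSL.Root
open Cfsg.Agent.ClassicalGeometry.AutPSL.SylowU

variable {F : Type*} [Field F]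

local notation "SL" => Matrix.SpecialLinearGroup (Fin 3) F
local notation "PSL" => Matrix.ProjectiveSpecialLinearGroup (Fin 3) F

theorem um_pow (s t z : F) (n : ℕ) : (um s t z : SL) ^ n = um (n * s) (n * t) (n * z + (n.choose 2 : ℕ) * (s * t)) := by
  induction n with
  | zero => simp [um_zero]
  | succ n ih =>
    rw [pow_succ, ih, um_mul, Nat.choose_succ_succ' n 1, Nat.choose_one_right]
    congr 1 <;> push_cast <;> ring

theorem um_pow_p {p : ℕ} [Fact p.Prime] [CharP F p] (h2 : p ≠ 2) (s t z : F) : (um s t z : SL) ^ p = 1 := by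
  have hp : p.Prime := Fact.out
  have h3 : 2 < p := by have := hp.two_le; omega
  rw [um_pow, ← um_zero]
  have h1 : ((p : ℕ) : F) = 0 := CharP.cast_eq_zero F p
  have h4 : ((p.choose 2 : ℕ) : F) = 0 := (CharP.cast_eq_zero_iff F p _).2 (hp.dvd_choose_self (by norm_num) h3)
  rw [h1, h4]
  simp

variable [Fintype F]

/-- **The `p`-elements have order dividing `p`.** -/
theorem pow_eq_one {p : ℕ} [hp : Fact p.Prime] [CharP F p] (h2 : p ≠ 2) {x : PSL} {k : ℕ} (hx : orderOf x = p ^ k) :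
    x ^ p = 1 := by
  obtain ⟨S, hS⟩ := exists_sylow 3 (F := F) p
  have hP : IsPGroup p (zpowers x) := IsPGroup.of_card (n := k) (by rw [Nat.card_zpowers, hx])
  obtain ⟨Q, hQ⟩ := hP.exists_le_sylow
  obtain ⟨g, hg⟩ := MulAction.exists_smul_eq PSL Q S
  have h1 : g * x * g⁻¹ ∈ (upper 3 F).map pr := by
    rw [← hS, ← hg, Sylow.coe_subgroup_smul]
    exact Subgroup.smul_mem_pointwise_smul _ (MulAut.conj g) _ (hQ (mem_zpowers x))
  obtain ⟨s, t, z, h3⟩ := mem_U.1 h1
  have h4 : (g * x * g⁻¹) ^ p = 1 := by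
    rw [h3, ← map_pow, um_pow_p h2, map_one]
  rw [conj_pow, mul_inv_eq_one] at h4
  exact mul_eq_left.1 h4

omit [Fintype F] in
theorem dm_det (a b : Fˣ) : (!![(a : F), 0, 0; 0, (b : F), 0; 0, 0, ((a * b)⁻¹ : Fˣ)] : Matrix (Fin 3) (Fin 3) F).det = 1 := by
  rw [Matrix.det_fin_three]
  simp
  field_simp

/-- a diagonal matrix -/
def dm (a b : Fˣ) : SL := mk !![(a : F), 0, 0; 0, (b : F), 0; 0, 0, ((a * b)⁻¹ : Fˣ)] (dm_det a b)

omit [Fintype F] in
theorem dm_val (a b : Fˣ) : (dm a b : SL).1 = !![(a : F), 0, 0; 0, (b : F), 0; 0, 0, ((a * b)⁻¹ : Fˣ)] := rfl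

omit [Fintype F] in
theorem dm_mul (a b a' b' : Fˣ) : (dm a b * dm a' b' : SL) = dm (a * a') (b * b') := by
  apply ext3 <;> rw [mul_apply3, dm_val, dm_val, dm_val] <;> simp [mul_comm, mul_left_comm, mul_assoc]

omit [Fintype F] in
theorem dm_one : (dm 1 1 : SL) = 1 := by
  apply ext3 <;> rw [dm_val] <;> simp

/-- the diagonal matrices -/
def dg : Fˣ × Fˣ →* SL where
  toFun x := dm x.1 x.2
  map_one' := dm_one
  map_mul' _ _ := (dm_mul _ _ _ _).symm

omit [Fintype F] in
theorem dg_val (x : Fˣ × Fˣ) :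
    (dg x : SL).1 = !![(x.1 : F), 0, 0; 0, (x.2 : F), 0; 0, 0, ((x.1 * x.2)⁻¹ : Fˣ)] := rfl

omit [Fintype F] in
theorem dg_isT (x : Fˣ × Fˣ) : IsT (dg x : SL) := by
  unfold IsT
  rw [dg_val]
  simp

/-- **The torus.** -/
theorem exists_tor {p : ℕ} [hp : Fact p.Prime] [CharP F p] {q : ℕ} (hF : Fintype.card F = q) :
    ∃ (S : Sylow p PSL) (H : Subgroup PSL), Nat.card S = q ^ 3 ∧ H ≤ normalizer ((S : Subgroup PSL) : Set PSL) ∧
      (Nat.card H).Coprime p ∧ (q - 1) ^ 2 ≤ 3 * Nat.card H := by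
  obtain ⟨S, hS⟩ := exists_sylow 3 (F := F) p
  let φ : Fˣ × Fˣ →* PSL := (pr : SL →* PSL).comp dg
  have hcardF : Nat.card (Fˣ × Fˣ) = (q - 1) ^ 2 := by
    rw [Nat.card_prod, Nat.card_units, Nat.card_eq_fintype_card, hF, pow_two]
  have hcard : Nat.card φ.ker * Nat.card φ.range = (q - 1) ^ 2 := by
    have h1 := Subgroup.card_mul_index φ.ker
    rw [Subgroup.index_ker, hcardF] at h1
    exact h1
  have hker : Nat.card φ.ker ≤ 3 := by
    have h3 : ∀ x ∈ φ.ker, x.1 = x.2 ∧ x.1 ^ 3 = 1 := by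
      intro x hx
      have h1 : pr (dg x : SL) = pr (1 : SL) := by rw [map_one]; exact hx
      obtain ⟨c, hc⟩ := exists_smul_of_pr_eq h1
      rw [dg_val] at hc
      have e0 := congrFun (congrFun hc 0) 0
      have e1 := congrFun (congrFun hc 1) 1
      have e2 := congrFun (congrFun hc 2) 2
      simp at e0 e1 e2
      have hc0 : c ≠ 0 := by
        rintro rfl
        simp at e0
      have h4 : x.1 = x.2 := by
        apply Units.ext
        exact mul_left_cancel₀ hc0 (e0.symm.trans e1)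
      refine ⟨h4, ?_⟩
      rw [← h4] at e2
      have h5 : (x.1 : F) * x.1 * x.1 = 1 := by
        have h6 : (x.1 : F) ≠ 0 := x.1.ne_zero
        have h7 : (x.1 : F) * x.1 = c := by
          field_simp at e2
          linear_combination e2
        rw [h7]
        exact e0.symm
      apply Units.ext
      rw [Units.val_pow_eq_pow_val, Units.val_one, pow_succ, pow_two]
      exact h5
    classical
    let g : φ.ker → {a : Fˣ // a ^ 3 = 1} := fun x => ⟨x.1.1, (h3 x x.2).2⟩
    have hg : Function.Injective g := by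
      intro x y h
      have h1 : x.1.1 = y.1.1 := congrArg Subtype.val h
      apply Subtype.ext
      exact Prod.ext h1 (by rw [← (h3 x x.2).1, ← (h3 y y.2).1, h1])
    refine (Nat.card_le_card_of_injective g hg).trans ?_
    rw [Nat.card_eq_fintype_card, Fintype.card_subtype]
    exact IsCyclic.card_pow_eq_one_le (by norm_num)
  refine ⟨S, φ.range, ?_, ?_, ?_, ?_⟩
  · rw [hS, card_map_upper, hF]
  · rintro _ ⟨x, rfl⟩
    rw [hS]
    exact mem_normalizer_of_isT (dg_isT x)
  · have h1 : Nat.card φ.range ∣ (q - 1) ^ 2 := hcard ▸ Dvd.intro_left _ rfl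
    refine Nat.Coprime.coprime_dvd_left h1 (Nat.Coprime.pow_left 2 ?_)
    rw [Nat.coprime_comm, Nat.Prime.coprime_iff_not_dvd hp.out]
    intro h
    obtain ⟨n, -, hn⟩ := FiniteField.card F p
    rw [hF] at hn
    have h2 : p ∣ q := by rw [hn]; exact dvd_pow_self p n.ne_zero
    have h3 : 1 ≤ q := by rw [hn]; exact Nat.one_le_pow _ _ hp.out.pos
    have h4 := Nat.dvd_sub h2 h
    rw [Nat.sub_sub_self h3] at h4
    exact hp.out.one_lt.ne' (Nat.dvd_one.1 h4)
  · rw [← hcard]
    exact Nat.mul_le_mul_right _ hker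

end Cfsg.Agent.H983.Cov.L3
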